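import Cfsg.Agent.Lib.Helper69.OAsch.Adj
import Cfsg.Agent.Lib.Helper96.Asch.L0e

set_option autoImplicit false

/-! # O8: the enveloping algebra of a group of isometries and its centre are closed under `adj` -/

namespace Cfsg.Agent.Lib.Helper69.OAsch

open Cfsg Cfsg.Geo Matrix Cfsg.Agent.Lib.Helper13.Asch Cfsg.Agent.Lib.Helper21.OAsch
open scoped Kronecker MatrixGroups

variable {ι : Type} [Fintype ι] [DecidableEq ι] {F : Type*} [Field F]
variable {Q : (ι → F) → F} {G : Matrix ι ι F}

theorem adj_mem_cen (hO : OData Q G) (N : Subgroup (GL ι F)) (hN : Iso G N) :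
    (∀ x ∈ env N, adj G x ∈ env N) ∧ ∀ z ∈ cen (env N), adj G z ∈ cen (env N) := by
  have h1 : ∀ x ∈ env N, adj G x ∈ env N := by
    intro x hx
    have hx' : x ∈ Submodule.span F (matrixSet N) := by
      rw [← Cfsg.Agent.Lib.Helper96.Asch.env_eq_span]
      exact hx
    induction hx' using Submodule.span_induction with
    | mem y hy =>
      obtain ⟨g, hg, rfl⟩ := hy
      show adj G (g : Matrix ι ι F) ∈ env N
      rw [adj_of_iso hO.unit g (hN g hg)]
      exact Algebra.subset_adjoin ⟨g⁻¹, N.inv_mem hg, rfl⟩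
    | zero => rw [adj_zero]; exact (env N).zero_mem
    | add y z _ _ hy hz =>
      rw [adj_add]
      exact (env N).add_mem
        (hy (by rw [← Subalgebra.mem_toSubmodule, Cfsg.Agent.Lib.Helper96.Asch.env_eq_span]; assumption))
        (hz (by rw [← Subalgebra.mem_toSubmodule, Cfsg.Agent.Lib.Helper96.Asch.env_eq_span]; assumption))
    | smul c y _ hy =>
      rw [adj_smul]
      exact (env N).smul_mem
        (hy (by rw [← Subalgebra.mem_toSubmodule, Cfsg.Agent.Lib.Helper96.Asch.env_eq_span]; assumption)) c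
  refine ⟨h1, ?_⟩
  intro z hz
  obtain ⟨hzA, hzc⟩ := hz
  refine ⟨h1 z hzA, ?_⟩
  rw [SetLike.mem_coe, Subalgebra.mem_centralizer_iff] at hzc ⊢
  intro a ha
  have h2 := hzc (adj G a) (h1 a ha)
  have h3 := congrArg (adj G) h2
  rw [adj_mul hO.unit, adj_mul hO.unit, adj_adj hO.unit hO.symm] at h3
  exact h3.symm

end Cfsg.Agent.Lib.Helper69.OAsch
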