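import Cfsg.Agent.Lib.Helper69.OAsch.Adj
import Cfsg.Agent.Lib.Helper35.Asch.L8
import Cfsg.Agent.Lib.Helper35.OAsch.O11c

set_option autoImplicit false

/-! # O6: an orthogonal frame over a non-prime field gives a subfield group -/

namespace Cfsg.Agent.Lib.Helper69.OAsch

open Cfsg Cfsg.Geo Matrix Cfsg.Agent.Lib.Helper13.Asch Cfsg.Agent.Lib.Helper21.OAsch
open scoped Kronecker MatrixGroups

variable {ι : Type} [Fintype ι] [DecidableEq ι] {F : Type*} [Field F]
variable {Q : (ι → F) → F} {G : Matrix ι ι F}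

theorem mem_range_map_of_entries (F₁ : Subfield F) (g : GL ι F)
    (h : ∀ i j, (g : Matrix ι ι F) i j ∈ F₁) :
    g ∈ (Matrix.GeneralLinearGroup.map (F₁.subtype : F₁ →+* F)).range := by
  let A₁ : Matrix ι ι F₁ := fun i j => ⟨(g : Matrix ι ι F) i j, h i j⟩
  have hA₁ : A₁.map (F₁.subtype : F₁ →+* F) = (g : Matrix ι ι F) := by
    ext k l; rfl
  have hdet : A₁.det ≠ 0 := by
    intro h0
    have h1 : F₁.subtype A₁.det = (g : Matrix ι ι F).det := by
      rw [RingHom.map_det, RingHom.mapMatrix_apply, hA₁]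
    rw [h0, map_zero] at h1
    have h2 : (g : Matrix ι ι F).det ≠ 0 := by
      have := (Matrix.GeneralLinearGroup.det g).ne_zero
      simpa using this
    exact h2 h1.symm
  exact ⟨Matrix.GeneralLinearGroup.mkOfDetNeZero A₁ hdet, Units.ext hA₁⟩

theorem bot_ne_top_of_not_prime [Fintype F] (hq : ¬ (Fintype.card F).Prime) :
    (⊥ : Subfield F) ≠ ⊤ := by
  intro h
  apply hq
  obtain ⟨p, hp⟩ := CharP.exists F
  have hpp : Fact p.Prime := ⟨CharP.char_is_prime F p⟩
  have h1 := Subfield.card_bot F p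
  rw [h] at h1
  have h2 : Nat.card (⊤ : Subfield F) = Nat.card F := Nat.card_congr Subfield.topEquiv.toEquiv
  rw [← Nat.card_eq_fintype_card, ← h2, h1]
  exact hpp.out

/-- isometries preserve `2 Q` -/
theorem two_Q_mulVec (hO : OData Q G) {h : Matrix ι ι F} (hh : hᵀ * G * h = G) (v : ι → F) :
    2 * Q (h *ᵥ v) = 2 * Q v := by
  rw [hO.quad, hO.quad]
  conv_rhs => rw [← hh, ← Matrix.mulVec_mulVec, ← Matrix.mulVec_mulVec, Matrix.dotProduct_mulVec,
    Matrix.vecMul_transpose]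

theorem two_Q_smul (hO : OData Q G) (c : F) (v : ι → F) : 2 * Q (c • v) = c ^ 2 * (2 * Q v) := by
  rw [hO.quad, hO.quad, Matrix.mulVec_smul, dotProduct_smul, smul_dotProduct, smul_eq_mul,
    smul_eq_mul]
  ring

/-- the frame vectors -/
theorem exists_frame (hO : OData Q G) {t : ℕ} {D : Fin t → Submodule F (ι → F)}
    (hDD : IsOrthogonalMDecomposition Q 1 D) :
    ∃ (v : Fin t → (ι → F)) (l : F), l ≠ 0 ∧ (∀ i, v i ∈ D i) ∧ (∀ i, v i ≠ 0) ∧
      (∀ i, 2 * Q (v i) = l) ∧ (∀ i, ∀ w ∈ D i, ∃ c : F, w = c • v i) := by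
  have hdec := hDD.decomp
  have ht : 0 < t := by have := hdec.decomp.two_le; omega
  let i₀ : Fin t := ⟨0, ht⟩
  have hfr := hdec.decomp.finrank_eq
  obtain ⟨w₀, hw₀⟩ : ∃ w : D i₀, w ≠ 0 := by
    have : Nontrivial (D i₀) := Module.nontrivial_of_finrank_pos (R := F) (by rw [hfr]; exact one_pos)
    exact exists_ne 0
  choose e he using fun i => hDD.isometric i₀ i
  have hv0 : ∀ i, e i w₀ ≠ 0 := fun i h => hw₀ ((e i).map_eq_zero_iff.mp h)
  have hspan : ∀ i, ∀ w ∈ D i, ∃ c : F, w = c • ((e i w₀ : D i) : ι → F) := by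
    intro i w hw
    obtain ⟨c, hc⟩ := (finrank_eq_one_iff_of_nonzero' (e i w₀) (hv0 i)).mp (hfr i) ⟨w, hw⟩
    exact ⟨c, by rw [← Submodule.coe_smul, hc]⟩
  refine ⟨fun i => ((e i w₀ : D i) : ι → F), 2 * Q (w₀ : ι → F), ?_, fun i => (e i w₀).2,
    fun i h => hv0 i (Subtype.ext h), fun i => by rw [he i w₀], hspan⟩
  -- nondegeneracy
  have hw₀' : (w₀ : ι → F) ≠ 0 := fun h => hw₀ (Subtype.ext h)
  obtain ⟨⟨x, hx, hxw⟩, -⟩ := hdec.nondegenerate i₀ w₀ w₀.2 hw₀'
  obtain ⟨c, hc⟩ := (finrank_eq_one_iff_of_nonzero' w₀ hw₀).mp (hfr i₀) ⟨x, hx⟩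
  have hc' : x = c • (w₀ : ι → F) := by rw [← Submodule.coe_smul, hc]
  intro h0
  apply hxw
  rw [hO.polar, hc', smul_dotProduct, ← hO.quad, h0, smul_zero]

theorem frame_subfield [Fintype F] (hO : OData Q G) (H : Subgroup (GL ι F)) (hH : Iso G H)
    (hD : CDec Q H 1) (hq : ¬ (Fintype.card F).Prime) : C5 Q H := by
  obtain ⟨t, D, hDD, hHD⟩ := hD
  obtain ⟨v, l, hl, hvD, hv0, hvQ, hvspan⟩ := exists_frame hO hDD
  have hdec := hDD.decomp
  have hli : LinearIndependent F v := hdec.decomp.indep.linearIndependent D hvD hv0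
  have hsp : ⊤ ≤ Submodule.span F (Set.range v) := by
    rw [Submodule.span_range_eq_iSup, ← hdec.decomp.iSup_eq_top]
    apply iSup_mono
    intro i w hw
    obtain ⟨c, rfl⟩ := hvspan i w hw
    exact Submodule.smul_mem _ c (Submodule.mem_span_singleton_self _)
  let b : Module.Basis (Fin t) F (ι → F) := Module.Basis.mk hli hsp
  let ε : ι ≃ Fin t := (Pi.basisFun F ι).indexEquiv b
  let b' : Module.Basis ι F (ι → F) := b.reindex ε.symm
  have hb' : ∀ j, b' j = v (ε j) := by intro j; simp [b', b]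
  let C : Matrix ι ι F := (Pi.basisFun F ι).toMatrix b'
  have hC : ∀ i j, C i j = v (ε j) i := by
    intro i j; simp [C, Module.Basis.toMatrix_apply, hb']
  have hCdet : IsUnit C.det := by
    have := (Pi.basisFun F ι).isUnit_det b'
    rwa [Module.Basis.det_apply] at this
  let P : GL ι F := Matrix.nonsingInvUnit C hCdet
  have hP : (P : Matrix ι ι F) = C := rfl
  -- Gram matrix
  have hgram : Cᵀ * G * C = l • (1 : Matrix ι ι F) := by
    ext j k
    have h1 : (Cᵀ * G * C) j k = v (ε j) ⬝ᵥ G *ᵥ v (ε k) := by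
      rw [Matrix.mul_assoc]
      simp only [Matrix.mul_apply, Matrix.transpose_apply, dotProduct, Matrix.mulVec, hC]
    rw [h1, Matrix.smul_apply, Matrix.one_apply]
    by_cases hjk : j = k
    · rw [if_pos hjk, hjk, ← hO.quad, hvQ, smul_eq_mul, mul_one]
    · rw [if_neg hjk, smul_zero, ← hO.polar]
      exact hdec.orthogonal (ε j) (ε k) (fun h => hjk (ε.injective h)) _ (hvD _) _ (hvD _)
  -- `H` is monomial with entries `±1`
  have hHsub : ∀ F₁ : Subfield F, H ≤ subfieldSubgroup F₁ P := by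
    intro F₁ h hh
    obtain ⟨σ, hσ⟩ := hHD hh
    have h1 : ∀ i, ∃ c : F, (h : Matrix ι ι F) *ᵥ v i = c • v (σ i) ∧ (c = 1 ∨ c = -1) := by
      intro i
      have hmem : (h : Matrix ι ι F) *ᵥ v i ∈ D (σ i) := by
        rw [← hσ i]; exact ⟨v i, hvD i, by simp [Matrix.toLin'_apply]⟩
      obtain ⟨c, hc⟩ := hvspan _ _ hmem
      refine ⟨c, hc, ?_⟩
      have h2 := two_Q_mulVec hO (hH h hh) (v i)
      rw [hc, two_Q_smul hO, hvQ, hvQ] at h2
      have h3 : c ^ 2 = 1 := mul_right_cancel₀ hl (by rw [h2, one_mul])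
      have h4 : (c - 1) * (c + 1) = 0 := by linear_combination h3
      rcases mul_eq_zero.mp h4 with h5 | h5
      · exact Or.inl (sub_eq_zero.mp h5)
      · exact Or.inr (eq_neg_of_add_eq_zero_left h5)
    choose c hc hc1 using h1
    let M : Matrix ι ι F := fun j k => if ε j = σ (ε k) then c (ε k) else 0
    have hhC : (h : Matrix ι ι F) * C = C * M := by
      ext i k
      have e1 : ((h : Matrix ι ι F) * C) i k = ((h : Matrix ι ι F) *ᵥ v (ε k)) i := by
        simp only [Matrix.mul_apply, Matrix.mulVec, dotProduct, hC]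
      rw [e1, hc, Matrix.mul_apply]
      rw [Finset.sum_eq_single (ε.symm (σ (ε k)))]
      · simp [M, hC, mul_comm]
      · intro j _ hj
        have : ε j ≠ σ (ε k) := fun h' => hj (by rw [← h', Equiv.symm_apply_apply])
        simp [M, this]
      · intro h'; exact absurd (Finset.mem_univ _) h'
    let g : GL ι F := P⁻¹ * h * P
    have hg : (g : Matrix ι ι F) = M := by
      show ((P⁻¹ : GL ι F) : Matrix ι ι F) * (h : Matrix ι ι F) * (P : Matrix ι ι F) = M
      rw [mul_assoc, hP, hhC, ← hP, ← mul_assoc, ← Units.val_mul, inv_mul_cancel, Units.val_one,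
        one_mul]
    have hent : ∀ j k, (g : Matrix ι ι F) j k ∈ F₁ := by
      intro j k
      rw [hg]
      show (if ε j = σ (ε k) then c (ε k) else 0) ∈ F₁
      split_ifs
      · rcases hc1 (ε k) with h' | h' <;> rw [h']
        · exact F₁.one_mem
        · exact F₁.neg_mem F₁.one_mem
      · exact F₁.zero_mem
    refine ⟨g, Subgroup.mem_sup_left (mem_range_map_of_entries F₁ g hent), ?_⟩
    show P * g * P⁻¹ = h
    simp only [g]
    group
  obtain ⟨F₁, r, -, hr, hcard, -, -⟩ :=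
    Cfsg.Agent.Lib.Helper35.Asch.exists_sigma (⊥ : Subfield F) (bot_ne_top_of_not_prime hq)
  obtain ⟨m, hm⟩ := hO.odd
  have hCd0 : C.det ≠ 0 := hCdet.ne_zero
  have hdet : C.det ^ 2 * G.det = l ^ (2 * m + 1) := by
    have h1 := congrArg Matrix.det hgram
    rw [Matrix.det_mul, Matrix.det_mul, Matrix.det_transpose, Matrix.det_smul, Matrix.det_one,
      mul_one, hm] at h1
    linear_combination h1
  have hμl : (l ^ m / C.det) ^ 2 * l = G.det := by
    field_simp
    linear_combination -hdet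
  refine Cfsg.Agent.Lib.Helper35.OAsch.c5_of_gram hO H F₁ r hr hcard P (hHsub F₁) (l ^ m / C.det)
    (div_ne_zero (pow_ne_zero _ hl) hCd0) ?_
  intro i j
  rw [hP, hgram, Matrix.smul_apply, Matrix.one_apply]
  by_cases hij : i = j
  · rw [if_pos hij, smul_eq_mul, mul_one, hμl]
    exact hO.rat F₁
  · rw [if_neg hij, smul_zero, mul_zero]
    exact F₁.zero_mem

end Cfsg.Agent.Lib.Helper69.OAsch
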