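import Cfsg.Agent.Lib.Helper69.OAsch.O5
import Cfsg.Agent.Lib.Helper69.OAsch.O6
import Cfsg.Agent.Lib.Helper69.OAsch.O8
import Cfsg.Agent.Lib.Helper58.OAsch.O9
import Cfsg.Agent.Lib.Helper60.Asch.G1

set_option autoImplicit false

/-! # O10: analysis of a non-scalar normal subgroup -/

namespace Cfsg.Agent.Lib.Helper69.OAsch

open Cfsg Cfsg.Geo Matrix Cfsg.Agent.Lib.Helper13.Asch Cfsg.Agent.Lib.Helper21.OAsch
open Cfsg.Agent.Lib.Helper58.Asch Cfsg.Agent.Lib.Helper73.Asch Cfsg.Agent.Lib.Helper79.Asch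
  Cfsg.Agent.Lib.Helper35.Asch Cfsg.Agent.Lib.Helper55.Asch Cfsg.Agent.Lib.Helper60.Asch
open scoped Kronecker MatrixGroups

variable {ι : Type} [Fintype ι] [DecidableEq ι] {F : Type*} [Field F]
variable {Q : (ι → F) → F} {G : Matrix ι ι F}

theorem normal_analysis [Fintype F] (hO : OData Q G) (H N : Subgroup (GL ι F)) (hH : Iso G H)
    (hirr : ActsIrreducibly (matrixSet H)) (hNH : N ≤ H) (hnrm : Nrm H N)
    (hns : ¬ N ≤ scalars ι F) :
    OBasic Q H ∨ env N = ⊤ ∨
      ∃ (a b : ℕ) (e : ι ≃ Fin a × Fin b) (P : GL ι F), 2 ≤ a ∧ 2 ≤ b ∧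
        (∀ x, x ∈ env N ↔ ∃ X, x = embL e P X) ∧ H ≤ tensorProductSubgroup a b e P := by
  classical
  have hne0 : Nonempty ι := by
    rw [← Fintype.card_pos_iff]
    exact hO.odd.pos
  have hN : Iso G N := fun h hh => hH h (hNH hh)
  have hA : H ≤ subalgebraNormalizer (env N) := nrm_env hnrm
  have hZ : H ≤ subalgebraNormalizer (cen (env N)) := fun g hg => normalizer_center (hA hg)
  have hZc : ∀ x ∈ cen (env N), ∀ y ∈ cen (env N), x * y = y * x := by
    intro x hx y hy
    have h1 := (Algebra.mem_inf.1 hx).1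
    have h2 := (Algebra.mem_inf.1 hy).2
    exact (Subalgebra.mem_centralizer_iff F).1 h2 x h1
  rcases field_or_decomp hO H hH hirr (cen (env N)) hZ hZc (adj_mem_cen hO N hN).2 with
    ⟨k, hk⟩ | ⟨hinv, hsa⟩
  · left
    have hkpos : 0 < k := by
      obtain ⟨t, D, hD, -⟩ := hk
      exact hD.decomp.decomp.pos
    by_cases hk1 : k = 1
    · subst hk1
      by_cases hq : (Fintype.card F).Prime
      · exact Or.inr (Or.inr (Or.inr (Or.inl ⟨hq, hk⟩)))
      · exact Or.inr (Or.inr (Or.inr (Or.inr (Or.inr (frame_subfield hO H hH hk hq)))))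
    · exact Or.inr (Or.inr (Or.inl ⟨k, by omega, hk⟩))
  by_cases hne : ∃ x ∈ cen (env N), ∀ c : F, x ≠ c • 1
  · left
    exact Or.inr (Or.inr (Or.inr (Or.inr (Or.inl
      (Cfsg.Agent.Lib.Helper58.OAsch.field_case hO H N hN hns hZ hinv hsa hne)))))
  right
  push Not at hne
  obtain ⟨A, hAdef⟩ : ∃ A, A = env N := ⟨_, rfl⟩
  rw [← hAdef] at hA hne ⊢
  have hc : ∀ z ∈ A, (∀ a ∈ A, z * a = a * z) → ∃ c : F, z = c • 1 := by
    intro z hz hza
    apply hne z
    refine Algebra.mem_inf.2 ⟨hz, ?_⟩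
    rw [Subalgebra.mem_centralizer_iff]
    intro a ha
    exact (hza a ha).symm
  have hss : SS A := ss_of_irr H hirr A hA
  obtain ⟨a, ⟨ψ⟩⟩ := exists_algEquiv_matrix A hss hc
  obtain ⟨b, e, P, hψ⟩ := matrix_rep_std (A.val.comp ψ.toAlgHom)
  have hmemA : ∀ x, x ∈ A ↔ ∃ X, x = embL e P X := by
    intro x
    constructor
    · intro hx
      refine ⟨ψ.symm ⟨x, hx⟩, ?_⟩
      rw [← hψ]
      simp
    · rintro ⟨X, rfl⟩
      rw [← hψ]
      exact (ψ X).2
  have hcard : Fintype.card ι = a * b := by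
    have := Fintype.card_congr e
    simpa using this
  have hpos : 0 < a * b := hcard ▸ hO.odd.pos
  by_cases ha1 : a = 1
  · exfalso
    apply hns
    subst ha1
    intro x hx
    have hxA : (x : Matrix ι ι F) ∈ A := by
      rw [hAdef]
      exact Algebra.subset_adjoin ⟨x, hx, rfl⟩
    obtain ⟨X, hX⟩ : ∃ X, X = ψ.symm ⟨x.1, hxA⟩ := ⟨_, rfl⟩
    have hX1 : X = (X 0 0) • (1 : Matrix (Fin 1) (Fin 1) F) := by
      ext i j
      have hi : i = 0 := Subsingleton.elim _ _
      have hj : j = 0 := Subsingleton.elim _ _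
      subst hi; subst hj
      simp
    have h1 : (⟨x.1, hxA⟩ : A) = (X 0 0) • (1 : A) := by
      have h2 := congrArg ψ hX1
      rw [map_smul, map_one, hX, AlgEquiv.apply_symm_apply, ← hX] at h2
      exact h2
    have hx1 : x.1 = (X 0 0) • (1 : Matrix ι ι F) := congrArg Subtype.val h1
    rw [mem_scalars_iff]
    have hne0 : X 0 0 ≠ 0 := by
      intro h0
      rw [h0, zero_smul] at hx1
      exact x.ne_zero hx1
    exact ⟨Units.mk0 _ hne0, hx1⟩
  by_cases hb1 : b = 1
  · left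
    have h1 : Module.finrank F A = a * a := by
      rw [← ψ.toLinearEquiv.finrank_eq]
      simp [Module.finrank_matrix]
    have h2 : Module.finrank F (Matrix ι ι F) = Fintype.card ι * Fintype.card ι := by
      simp [Module.finrank_matrix]
    apply Algebra.toSubmodule_eq_top.1
    apply Submodule.eq_top_of_finrank_eq
    rw [Subalgebra.finrank_toSubmodule, h1, h2, hcard, hb1]
    ring
  right
  have ha2 : 2 ≤ a := by
    rcases Nat.lt_or_ge a 2 with h | h
    · interval_cases a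
      · omega
      · omega
    · exact h
  have hb2 : 2 ≤ b := by
    rcases Nat.lt_or_ge b 2 with h | h
    · interval_cases b
      · omega
      · omega
    · exact h
  have hHT : H ≤ tensorProductSubgroup a b e P := by
    intro h hh
    apply mem_tensorProductSubgroup
    intro X
    have h1 : embL e P X ∈ A := (hmemA _).2 ⟨X, rfl⟩
    have h2 := (hA hh _).1 h1
    exact (hmemA _).1 h2
  exact ⟨a, b, e, P, ha2, hb2, hmemA, hHT⟩

end Cfsg.Agent.Lib.Helper69.OAsch
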