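import Cfsg.Agent.Lib.Helper69.OAsch.O4
import Cfsg.Agent.Lib.Helper58.OAsch.O3

set_option autoImplicit false

/-! # O5: a commutative normalised `adj`-closed algebra gives a decomposition or is a self-adjoint
field -/

namespace Cfsg.Agent.Lib.Helper69.OAsch

open Cfsg Cfsg.Geo Matrix Cfsg.Agent.Lib.Helper13.Asch Cfsg.Agent.Lib.Helper21.OAsch
open scoped Kronecker MatrixGroups

variable {ι : Type} [Fintype ι] [DecidableEq ι] {F : Type*} [Field F]
variable {Q : (ι → F) → F} {G : Matrix ι ι F}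

theorem adj_conj (hG : IsUnit G.det) {H : Subgroup (GL ι F)} (hH : Iso G H) {g : GL ι F}
    (hg : g ∈ H) (k : Matrix ι ι F) :
    adj G ((g : Matrix ι ι F) * k * ((g⁻¹ : GL ι F) : Matrix ι ι F)) =
      (g : Matrix ι ι F) * adj G k * ((g⁻¹ : GL ι F) : Matrix ι ι F) := by
  rw [adj_mul hG, adj_mul hG, adj_of_iso hG g (hH g hg), adj_of_iso hG g⁻¹ (hH _ (H.inv_mem hg)),
    inv_inv, mul_assoc]

theorem field_or_decomp (hO : OData Q G) (H : Subgroup (GL ι F)) (hH : Iso G H)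
    (hirr : ActsIrreducibly (matrixSet H))
    (Z : Subalgebra F (Matrix ι ι F)) (hZ : H ≤ subalgebraNormalizer Z)
    (hcomm : ∀ x ∈ Z, ∀ y ∈ Z, x * y = y * x) (hadj : ∀ z ∈ Z, adj G z ∈ Z) :
    (∃ k, CDec Q H k) ∨
      ((∀ x ∈ Z, x ≠ 0 → ∃ y ∈ Z, x * y = 1) ∧ ∀ z ∈ Z, adj G z = z) := by
  let Zp : Subalgebra F (Matrix ι ι F) :=
    { carrier := {z | z ∈ Z ∧ adj G z = z}
      mul_mem' := by
        rintro x y ⟨hx, hx'⟩ ⟨hy, hy'⟩
        exact ⟨Z.mul_mem hx hy, by rw [adj_mul hO.unit, hx', hy', hcomm y hy x hx]⟩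
      add_mem' := by
        rintro x y ⟨hx, hx'⟩ ⟨hy, hy'⟩
        exact ⟨Z.add_mem hx hy, by rw [adj_add, hx', hy']⟩
      algebraMap_mem' := fun c => ⟨Z.algebraMap_mem c, adj_algebraMap hO.unit c⟩ }
  have hZp : ∀ z, z ∈ Zp ↔ z ∈ Z ∧ adj G z = z := fun z => Iff.rfl
  have hnorm : H ≤ subalgebraNormalizer Zp := by
    intro g hg k
    have h1 := hZ hg k
    rw [hZp, hZp, adj_conj hO.unit hH hg, ← h1]
    apply and_congr_right
    intro _
    constructor
    · intro h; rw [h]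
    · intro h
      have h2 : ((g⁻¹ : GL ι F) : Matrix ι ι F) * ((g : Matrix ι ι F) * adj G k *
          ((g⁻¹ : GL ι F) : Matrix ι ι F)) * (g : Matrix ι ι F) =
          ((g⁻¹ : GL ι F) : Matrix ι ι F) * ((g : Matrix ι ι F) * k *
          ((g⁻¹ : GL ι F) : Matrix ι ι F)) * (g : Matrix ι ι F) := by rw [h]
      have e : ∀ X : Matrix ι ι F, ((g⁻¹ : GL ι F) : Matrix ι ι F) * ((g : Matrix ι ι F) * X *
          ((g⁻¹ : GL ι F) : Matrix ι ι F)) * (g : Matrix ι ι F) = X := by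
        intro X
        calc ((g⁻¹ : GL ι F) : Matrix ι ι F) * ((g : Matrix ι ι F) * X *
          ((g⁻¹ : GL ι F) : Matrix ι ι F)) * (g : Matrix ι ι F)
            = (((g⁻¹ : GL ι F) : Matrix ι ι F) * (g : Matrix ι ι F)) * X *
              (((g⁻¹ : GL ι F) : Matrix ι ι F) * (g : Matrix ι ι F)) := by simp only [mul_assoc]
          _ = X := by rw [← Units.val_mul, inv_mul_cancel, Units.val_one, one_mul, mul_one]
      rwa [e, e] at h2
  rcases Cfsg.Agent.Lib.Helper58.OAsch.sa_dichotomy hO H hH hirr Zp hnorm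
    (fun x hx y hy => hcomm x hx.1 y hy.1) (fun z hz => hz.2) with h | h
  · exact Or.inl h
  · right
    have hsa : ∀ z ∈ Z, adj G z = z := by
      apply sa_of_odd hO H hirr Z hZ hcomm hadj
      intro x hx hx' hx0
      obtain ⟨y, -, hxy⟩ := h x ⟨hx, hx'⟩ hx0
      exact Matrix.isUnit_det_of_right_inverse hxy
    refine ⟨?_, hsa⟩
    intro x hx hx0
    obtain ⟨y, hy, hxy⟩ := h x ⟨hx, hsa x hx⟩ hx0
    exact ⟨y, hy.1, hxy⟩

end Cfsg.Agent.Lib.Helper69.OAsch
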