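import Cfsg.Agent.Lib.Helper21.OAsch.Defs

set_option autoImplicit false

/-! # Basic facts on the adjoint `adj G X = G⁻¹ Xᵀ G` -/

namespace Cfsg.Agent.Lib.Helper69.OAsch

open Cfsg Cfsg.Geo Matrix Cfsg.Agent.Lib.Helper13.Asch Cfsg.Agent.Lib.Helper21.OAsch
open scoped Kronecker MatrixGroups

variable {ι : Type} [Fintype ι] [DecidableEq ι] {F : Type*} [Field F]
variable {Q : (ι → F) → F} {G : Matrix ι ι F}

theorem adj_add (G X Y : Matrix ι ι F) : adj G (X + Y) = adj G X + adj G Y := by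
  unfold adj
  rw [Matrix.transpose_add, mul_add, add_mul]

theorem adj_neg (G X : Matrix ι ι F) : adj G (-X) = - adj G X := by
  unfold adj
  rw [Matrix.transpose_neg, mul_neg, neg_mul]

theorem adj_sub (G X Y : Matrix ι ι F) : adj G (X - Y) = adj G X - adj G Y := by
  rw [sub_eq_add_neg, adj_add, adj_neg, ← sub_eq_add_neg]

theorem adj_smul (G : Matrix ι ι F) (c : F) (X : Matrix ι ι F) : adj G (c • X) = c • adj G X := by
  unfold adj
  rw [Matrix.transpose_smul, mul_smul_comm, smul_mul_assoc]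

theorem adj_zero (G : Matrix ι ι F) : adj G 0 = 0 := by
  unfold adj
  simp

theorem adj_mul (hG : IsUnit G.det) (X Y : Matrix ι ι F) : adj G (X * Y) = adj G Y * adj G X := by
  unfold adj
  rw [Matrix.transpose_mul]
  calc G⁻¹ * (Yᵀ * Xᵀ) * G = G⁻¹ * Yᵀ * 1 * Xᵀ * G := by simp [mul_assoc]
    _ = G⁻¹ * Yᵀ * (G * G⁻¹) * Xᵀ * G := by rw [Matrix.mul_nonsing_inv G hG]
    _ = G⁻¹ * Yᵀ * G * (G⁻¹ * Xᵀ * G) := by simp only [mul_assoc]

theorem adj_one (hG : IsUnit G.det) : adj G (1 : Matrix ι ι F) = 1 := by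
  unfold adj
  rw [Matrix.transpose_one, mul_one, Matrix.nonsing_inv_mul G hG]

theorem adj_adj (hG : IsUnit G.det) (hs : Gᵀ = G) (X : Matrix ι ι F) : adj G (adj G X) = X := by
  unfold adj
  rw [Matrix.transpose_mul, Matrix.transpose_mul, Matrix.transpose_transpose,
    Matrix.transpose_nonsing_inv, hs]
  calc G⁻¹ * (G * (X * G⁻¹)) * G = (G⁻¹ * G) * X * (G⁻¹ * G) := by simp only [mul_assoc]
    _ = X := by rw [Matrix.nonsing_inv_mul G hG, one_mul, mul_one]

theorem mul_adj (hG : IsUnit G.det) (X : Matrix ι ι F) : G * adj G X = Xᵀ * G := by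
  unfold adj
  rw [← mul_assoc, ← mul_assoc, Matrix.mul_nonsing_inv G hG, one_mul]

theorem adj_algebraMap (hG : IsUnit G.det) (c : F) :
    adj G (algebraMap F (Matrix ι ι F) c) = algebraMap F (Matrix ι ι F) c := by
  rw [Algebra.algebraMap_eq_smul_one, adj_smul, adj_one hG]

/-- the adjoint of an isometry is its inverse -/
theorem adj_of_iso (hG : IsUnit G.det) (h : GL ι F)
    (hh : (h : Matrix ι ι F)ᵀ * G * (h : Matrix ι ι F) = G) :
    adj G (h : Matrix ι ι F) = ((h⁻¹ : GL ι F) : Matrix ι ι F) := by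
  unfold adj
  have h1 : (h : Matrix ι ι F)ᵀ * G = G * ((h⁻¹ : GL ι F) : Matrix ι ι F) := by
    calc (h : Matrix ι ι F)ᵀ * G
        = (h : Matrix ι ι F)ᵀ * G * ((h : Matrix ι ι F) * ((h⁻¹ : GL ι F) : Matrix ι ι F)) := by
          rw [← Units.val_mul, mul_inv_cancel, Units.val_one, mul_one]
      _ = G * ((h⁻¹ : GL ι F) : Matrix ι ι F) := by rw [← mul_assoc, hh]
  rw [mul_assoc, h1, ← mul_assoc, Matrix.nonsing_inv_mul G hG, one_mul]

theorem iso_inv {H : Subgroup (GL ι F)} (hH : Iso G H) {h : GL ι F} (hh : h ∈ H) :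
    ((h⁻¹ : GL ι F) : Matrix ι ι F)ᵀ * G * ((h⁻¹ : GL ι F) : Matrix ι ι F) = G :=
  hH _ (H.inv_mem hh)

end Cfsg.Agent.Lib.Helper69.OAsch
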