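import Cfsg.Agent.Lib.Helper69.OAsch.Adj
import Cfsg.Agent.Lib.Helper73.Asch.L2b

set_option autoImplicit false

/-! # O4: the skew trick -/

namespace Cfsg.Agent.Lib.Helper69.OAsch

open Cfsg Cfsg.Geo Matrix Cfsg.Agent.Lib.Helper13.Asch Cfsg.Agent.Lib.Helper21.OAsch
open scoped Kronecker MatrixGroups

variable {ι : Type} [Fintype ι] [DecidableEq ι] {F : Type*} [Field F]
variable {Q : (ι → F) → F} {G : Matrix ι ι F}

theorem sa_of_odd (hO : OData Q G) (H : Subgroup (GL ι F))
    (hirr : ActsIrreducibly (matrixSet H))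
    (Z : Subalgebra F (Matrix ι ι F)) (hZ : H ≤ subalgebraNormalizer Z)
    (hcomm : ∀ x ∈ Z, ∀ y ∈ Z, x * y = y * x) (hadj : ∀ z ∈ Z, adj G z ∈ Z)
    (hfield : ∀ x ∈ Z, adj G x = x → x ≠ 0 → IsUnit x.det) : ∀ z ∈ Z, adj G z = z := by
  intro z hz
  set a := z - adj G z with ha
  have haZ : a ∈ Z := Z.sub_mem hz (hadj z hz)
  have hadja : adj G a = -a := by
    rw [ha, adj_sub, adj_adj hO.unit hO.symm, neg_sub]
  have ha0 : a = 0 := by
    by_contra hne
    have hss := Cfsg.Agent.Lib.Helper73.Asch.ss_of_irr H hirr Z hZ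
    have haa : a * a ≠ 0 := by
      intro h0
      apply hne
      apply Cfsg.Agent.Lib.Helper73.Asch.eq_zero_of_pow hss hcomm haZ (k := 2)
      rw [pow_two, h0]
    have hsa : adj G (a * a) = a * a := by
      rw [adj_mul hO.unit, hadja, neg_mul_neg]
    have hu := hfield (a * a) (Z.mul_mem haZ haZ) hsa haa
    have hdet : a.det ≠ 0 := by
      intro h0
      rw [Matrix.det_mul, h0, mul_zero] at hu
      exact not_isUnit_zero hu
    have hT : (G * a)ᵀ = -(G * a) := by
      rw [Matrix.transpose_mul, hO.symm, ← mul_adj hO.unit, hadja, mul_neg]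
    have hd : (G * a).det = -(G * a).det := by
      conv_lhs => rw [← Matrix.det_transpose, hT, Matrix.det_neg, hO.odd.neg_one_pow]
      ring
    have hd0 : (G * a).det = 0 := by
      have h2 : 2 * (G * a).det = 0 := by
        rw [two_mul]
        nth_rewrite 1 [hd]
        ring
      exact (mul_eq_zero.mp h2).resolve_left hO.two
    rw [Matrix.det_mul] at hd0
    rcases mul_eq_zero.mp hd0 with h | h
    · exact hO.unit.ne_zero h
    · exact hdet h
  exact (sub_eq_zero.mp ha0).symm

end Cfsg.Agent.Lib.Helper69.OAsch
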